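import Cfsg.Agent.Lib.SporRecognition.Cert.SuzG416.Upper
import Cfsg.Agent.Lib.SporRecognition.Cert.SuzJ280.Upper
import Cfsg.Agent.Lib.SporRecognition.Cert.Suz2160.Upper

/-! The group presented by the relators of Suz not involving `g`, with `g = 1` adjoined. -/

set_option autoImplicit false
set_option maxRecDepth 20000
set_option linter.constructorNameAsVariable false
set_option Elab.async false

namespace CfsgLib.SporRecognition.SuzG2

open CfsgLib.SporRecognition.CosetCert
open CfsgLib.SporRecognition.Cert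

def W6core : List (List (Cfsg.Spor.Suz.Gen × Bool)) :=
  SuzG416.relW.filter fun w => w.all fun x => decide (x.1 ≠ .g)

def W6 : List (List (Cfsg.Spor.Suz.Gen × Bool)) := W6core ++ [[(.g, true)], [(.g, true), (.g, true)]]

abbrev R6 : Set (FreeGroup Cfsg.Spor.Suz.Gen) := {r | r ∈ W6.map FreeGroup.mk}

theorem W6_one : ∀ w ∈ W6, evalW (PresentedGroup.of (rels := R6)) w = 1 := by
  intro w hw
  have h1 : PresentedGroup.mk R6 (FreeGroup.mk w) = 1 :=
    PresentedGroup.one_of_mem (show FreeGroup.mk w ∈ R6 from List.mem_map_of_mem hw)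
  have h2 : FreeGroup.lift (PresentedGroup.of (rels := R6)) = PresentedGroup.mk R6 :=
    FreeGroup.ext_hom _ _ fun a => FreeGroup.lift_apply_of
  rw [evalW, h2]
  exact h1

theorem sect_Suz2160 : ∃ s : Nat → PresentedGroup R6 ⧸ wordSubgroup R6 Suz2160.subW,
    s 0 = ((1 : PresentedGroup R6) : PresentedGroup R6 ⧸ wordSubgroup R6 Suz2160.subW) ∧
    ∀ a ∈ ([.a, .b, .c, .d] : List Cfsg.Spor.Suz.Gen), ∀ u, u < 2160 → Suz2160.tabU a u < 2160 ∧
      (PresentedGroup.of (rels := R6) a) • s u = s (Suz2160.tabU a u) :=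
  section_of_checks Suz2160.invols W6 W6_one (by decide +kernel) Suz2160.subW Suz2160.lets Suz2160.data Suz2160.rtriv Suz2160.rroot 11 11 rfl rfl
    (by decide +kernel) (by decide +kernel) (fun k hk => allBelow_spec Suz2160.defs_ok k hk) (Suz2160.covers1.trans (Suz2160.covers2)) (by decide +kernel)
    (by
      intro i hi u hu
      have hi' : i < 4 := hi
      interval_cases i
      · exact allBelow_spec Suz2160.final1 u hu
      · exact allBelow_spec Suz2160.final2 u hu
      · exact allBelow_spec Suz2160.final3 u hu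
      · exact allBelow_spec Suz2160.final4 u hu
      ) [.a, .b, .c, .d] Suz2160.tabU (by
      intro a ha
      fin_cases ha
      · exact ⟨0, by decide, rfl, rfl⟩
      · exact ⟨1, by decide, rfl, rfl⟩
      · exact ⟨2, by decide, rfl, rfl⟩
      · exact ⟨3, by decide, rfl, rfl⟩
      )


theorem sect_SuzJ280 : ∃ s : Nat → PresentedGroup R6 ⧸ wordSubgroup R6 SuzJ280.subW,
    s 0 = ((1 : PresentedGroup R6) : PresentedGroup R6 ⧸ wordSubgroup R6 SuzJ280.subW) ∧
    ∀ a ∈ ([.a, .b, .c, .d, .e] : List Cfsg.Spor.Suz.Gen), ∀ u, u < 280 → SuzJ280.tabU a u < 280 ∧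
      (PresentedGroup.of (rels := R6) a) • s u = s (SuzJ280.tabU a u) :=
  section_of_checks SuzJ280.invols W6 W6_one (by decide +kernel) SuzJ280.subW SuzJ280.lets SuzJ280.data SuzJ280.rtriv SuzJ280.rroot 17 21 rfl rfl
    (by decide +kernel) (by decide +kernel) (fun k hk => allBelow_spec SuzJ280.defs_ok k hk) (SuzJ280.covers1) (by decide +kernel)
    (by
      intro i hi u hu
      have hi' : i < 5 := hi
      interval_cases i
      · exact allBelow_spec SuzJ280.final1 u hu
      · exact allBelow_spec SuzJ280.final2 u hu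
      · exact allBelow_spec SuzJ280.final3 u hu
      · exact allBelow_spec SuzJ280.final4 u hu
      · exact allBelow_spec SuzJ280.final5 u hu
      ) [.a, .b, .c, .d, .e] SuzJ280.tabU (by
      intro a ha
      fin_cases ha
      · exact ⟨0, by decide, rfl, rfl⟩
      · exact ⟨1, by decide, rfl, rfl⟩
      · exact ⟨2, by decide, rfl, rfl⟩
      · exact ⟨3, by decide, rfl, rfl⟩
      · exact ⟨4, by decide, rfl, rfl⟩
      )


theorem sect_SuzG416 : ∃ s : Nat → PresentedGroup R6 ⧸ wordSubgroup R6 SuzG416.subW,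
    s 0 = ((1 : PresentedGroup R6) : PresentedGroup R6 ⧸ wordSubgroup R6 SuzG416.subW) ∧
    ∀ a ∈ ([.a, .b, .c, .d, .e, .f] : List Cfsg.Spor.Suz.Gen), ∀ u, u < 416 → SuzG416.tabU a u < 416 ∧
      (PresentedGroup.of (rels := R6) a) • s u = s (SuzG416.tabU a u) :=
  section_of_checks SuzG416.invols W6 W6_one (by decide +kernel) SuzG416.subW SuzG416.lets SuzG416.data SuzG416.rtriv SuzG416.rroot 24 29 rfl rfl
    (by decide +kernel) (by decide +kernel) (fun k hk => allBelow_spec SuzG416.defs_ok k hk) (SuzG416.covers1) (by decide +kernel)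
    (by
      intro i hi u hu
      have hi' : i < 6 := hi
      interval_cases i
      · exact allBelow_spec SuzG416.final1 u hu
      · exact allBelow_spec SuzG416.final2 u hu
      · exact allBelow_spec SuzG416.final3 u hu
      · exact allBelow_spec SuzG416.final4 u hu
      · exact allBelow_spec SuzG416.final5 u hu
      · exact allBelow_spec SuzG416.final6 u hu
      ) [.a, .b, .c, .d, .e, .f] SuzG416.tabU (by
      intro a ha
      fin_cases ha
      · exact ⟨0, by decide, rfl, rfl⟩
      · exact ⟨1, by decide, rfl, rfl⟩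
      · exact ⟨2, by decide, rfl, rfl⟩
      · exact ⟨3, by decide, rfl, rfl⟩
      · exact ⟨4, by decide, rfl, rfl⟩
      · exact ⟨5, by decide, rfl, rfl⟩
      )


theorem upper : Finite (PresentedGroup R6) ∧ Nat.card (PresentedGroup R6) ≤ 251596800 := by
  have b0 : Bound R6 ([] : List (List (Cfsg.Spor.Suz.Gen × Bool))) 1 := bound_nil
  have b1 : Bound R6 (([.a, .b, .c, .d] : List Cfsg.Spor.Suz.Gen).map fun a => [(a, true)]) 2160 :=
    (Bound.extend (WH := Suz2160.subW) b0 ([.a, .b, .c, .d] : List Cfsg.Spor.Suz.Gen) (by decide +kernel) 2160 (by decide) Suz2160.tabU sect_Suz2160).mono (by decide)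
  have b2 : Bound R6 (([.a, .b, .c, .d, .e] : List Cfsg.Spor.Suz.Gen).map fun a => [(a, true)]) 604800 :=
    (Bound.extend (WH := SuzJ280.subW) b1 ([.a, .b, .c, .d, .e] : List Cfsg.Spor.Suz.Gen) (by decide +kernel) 280 (by decide) SuzJ280.tabU sect_SuzJ280).mono (by decide)
  obtain ⟨h0, h1⟩ := (Bound.extend (WH := SuzG416.subW) b2 ([.a, .b, .c, .d, .e, .f] : List Cfsg.Spor.Suz.Gen) (by decide +kernel) 416 (by decide) SuzG416.tabU sect_SuzG416).mono (show 416 * 604800 ≤ 251596800 by decide)
  have htop : wordSubgroup R6 (([.a, .b, .c, .d, .e, .f] : List Cfsg.Spor.Suz.Gen).map fun a => [(a, true)]) = ⊤ := by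
    rw [eq_top_iff, ← PresentedGroup.closure_range_of R6, Subgroup.closure_le]
    rintro _ ⟨a, rfl⟩
    by_cases ha : a = .g
    · subst ha
      have h : PresentedGroup.of (rels := R6) .g = 1 := by
        simpa [evalW_eq_prod] using W6_one [(.g, true)] (by decide +kernel)
      rw [SetLike.mem_coe, h]
      exact one_mem _
    · refine Subgroup.subset_closure (List.mem_map.mpr ⟨[(a, true)], List.mem_map.mpr ⟨a, ?_, rfl⟩, by simp [evalW_eq_prod]⟩)
      cases a <;> first | exact absurd rfl ha | decide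
  rw [htop, Subgroup.card_top] at h0 h1
  exact ⟨Nat.finite_of_card_ne_zero h0, h1⟩

end CfsgLib.SporRecognition.SuzG2
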