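import Mathlib

/-! A field with four elements on which `decide` computes. -/

set_option autoImplicit false

namespace CfsgLib.SporRecognition.SuzG2

/-- The field with four elements; `w` is a primitive cube root of unity and `u = w + 1`. -/
inductive K4 where
  | z | o | w | u
  deriving DecidableEq

namespace K4

instance : Fintype K4 := Fintype.mk ⟨([K4.z, K4.o, K4.w, K4.u] : List K4), by decide⟩ (fun x => by cases x <;> decide)

/-- Addition. -/
def add : K4 → K4 → K4
  | .z, x => x
  | x, .z => x
  | .o, .o => .z
  | .o, .w => .u
  | .o, .u => .w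
  | .w, .o => .u
  | .w, .w => .z
  | .w, .u => .o
  | .u, .o => .w
  | .u, .w => .o
  | .u, .u => .z

/-- Multiplication. -/
def mul : K4 → K4 → K4
  | .z, _ => .z
  | _, .z => .z
  | .o, x => x
  | x, .o => x
  | .w, .w => .u
  | .w, .u => .o
  | .u, .w => .o
  | .u, .u => .w

/-- Inversion. -/
def inv : K4 → K4
  | .z => .z
  | .o => .o
  | .w => .u
  | .u => .w

instance : Zero K4 := ⟨.z⟩
instance : One K4 := ⟨.o⟩
instance : Add K4 := ⟨add⟩
instance : Mul K4 := ⟨mul⟩
instance : Neg K4 := ⟨id⟩
instance : Sub K4 := ⟨add⟩
instance : Inv K4 := ⟨inv⟩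

instance : CommRing K4 where
  add_assoc := by decide
  zero_add := by decide
  add_zero := by decide
  add_comm := by decide
  neg_add_cancel := by decide
  sub_eq_add_neg := by decide
  left_distrib := by decide
  right_distrib := by decide
  zero_mul := by decide
  mul_zero := by decide
  mul_assoc := by decide
  one_mul := by decide
  mul_one := by decide
  mul_comm := by decide
  nsmul := nsmulRec
  zsmul := zsmulRec
  npow := npowRec

instance : Field K4 where
  exists_pair_ne := ⟨0, 1, by decide⟩
  mul_inv_cancel := by decide
  inv_zero := rfl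
  nnqsmul := _
  nnqsmul_def := fun _ _ => rfl
  qsmul := _
  qsmul_def := fun _ _ => rfl

instance : CharP K4 2 := CharTwo.of_one_ne_zero_of_two_eq_zero one_ne_zero rfl

theorem card : Fintype.card K4 = 4 := rfl

end K4

end CfsgLib.SporRecognition.SuzG2
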